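import Mathlib
import Cfsg.Agent.Lib.UConj.Unip

/-!
Centralisers of regular unipotent elements of unitary groups: determinants.
-/

set_option autoImplicit false

namespace Cfsg.Agent.Lib.UConj

open Matrix Cfsg.Agent.Lib.Classical Cfsg.Agent.Lib.KS2.IsoCl Cfsg.Agent.Lib.KS2.Jordan

variable {K : Type*} [Field K] [Fintype K] {q n : ℕ}

/-- Determinant of a scalar plus a nilpotent matrix. -/
lemma det_scalar_add_nil (a : K) (D : Matrix (Fin n) (Fin n) K) (hD : IsNilpotent D) :
    (a • (1 : Matrix (Fin n) (Fin n) K) + D).det = a ^ n := by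
  classical
  have h1 : IsNilpotent (-D) := hD.neg
  have h2 := Matrix.isNilpotent_charpoly_sub_pow_of_isNilpotent h1
  have h3 : (-D).charpoly = Polynomial.X ^ Fintype.card (Fin n) := by
    have := h2.eq_zero
    exact sub_eq_zero.1 this
  have h4 := Matrix.eval_charpoly (-D) a
  rw [h3] at h4
  simp only [Polynomial.eval_pow, Polynomial.eval_X, Fintype.card_fin] at h4
  rw [h4]
  congr 1
  ext i j
  simp [Matrix.scalar_apply, Matrix.one_apply, Matrix.diagonal_apply]

/-- A unitary element commuting with a regular unipotent has determinant `a ^ n` with `a` of norm one. -/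
theorem core_det (hF : Fintype.card K = q ^ 2) (hn : 1 ≤ n) (u e : Matrix (Fin n) (Fin n) K)
    (hu : hAdj hF u * u = 1) (hN : (u - 1) ^ n = 0) (hr : (u - 1).rank = n - 1)
    (he : hAdj hF e * e = 1) (hc : e * u = u * e) : ∃ a : K, a ^ q * a = 1 ∧ e.det = a ^ n := by
  classical
  have hq0 : 0 < q := by
    rcases Nat.eq_zero_or_pos q with rfl | h
    · have := Fintype.card_pos (α := K)
      simp [hF] at this
    · exact h
  set N := u - 1 with hNdef
  have hNe : e * N = N * e := by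
    rw [hNdef, mul_sub, sub_mul, mul_one, one_mul, hc]
  -- the kernel line
  have hker : Module.finrank K (LinearMap.ker N.mulVecLin) = 1 := by
    have h1 := LinearMap.finrank_range_add_finrank_ker N.mulVecLin
    have h2 : Module.finrank K (LinearMap.range N.mulVecLin) = n - 1 := hr
    rw [h2, Module.finrank_fin_fun] at h1
    omega
  obtain ⟨w₀, hw₀⟩ : ∃ w₀ : LinearMap.ker N.mulVecLin, w₀ ≠ 0 := by
    by_contra hcon
    push Not at hcon
    have : Subsingleton (LinearMap.ker N.mulVecLin) := ⟨fun a b => by rw [hcon a, hcon b]⟩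
    have := Module.finrank_zero_of_subsingleton (R := K) (M := LinearMap.ker N.mulVecLin)
    omega
  have hline := (finrank_eq_one_iff_of_nonzero' w₀ hw₀).1 hker
  set w : Fin n → K := w₀.1 with hwdef
  have hw0 : w ≠ 0 := fun h => hw₀ (Subtype.ext h)
  have hNw : N *ᵥ w = 0 := w₀.2
  have hcK : ∀ y : Fin n → K, N *ᵥ y = 0 → ∃ c : K, y = c • w := by
    intro y hy
    obtain ⟨c, hc⟩ := hline ⟨y, hy⟩
    exact ⟨c, (congrArg Subtype.val hc).symm⟩
  -- the functional
  have hh0 : ∀ z : Fin n → K, Cfsg.hermForm n K q z 0 = 0 := by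
    intro z
    simp [Cfsg.hermForm, zero_pow hq0.ne']
  let φ : (Fin n → K) →ₗ[K] K :=
    { toFun := fun y => Cfsg.hermForm n K q y w
      map_add' := fun x y => hermForm_add_left hF x y w
      map_smul' := fun c x => hermForm_smul_left c x w }
  have hφ : ∀ y, φ y = Cfsg.hermForm n K q y w := fun _ => rfl
  have hφN : ∀ z, φ (N *ᵥ z) = 0 := by
    intro z
    rw [hφ, herm_adj hF]
    have h1 : hAdj hF u = hAdj hF N + 1 := by
      rw [← hAdj_one hF, ← hAdj_add, hNdef, sub_add_cancel]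
    have h2 : u *ᵥ w = w := by
      have h3 : u = N + 1 := by rw [hNdef, sub_add_cancel]
      rw [h3, Matrix.add_mulVec, hNw, Matrix.one_mulVec, zero_add]
    have h4 : hAdj hF u *ᵥ w = w := by
      have h5 : hAdj hF u *ᵥ (u *ᵥ w) = w := by rw [Matrix.mulVec_mulVec, hu, Matrix.one_mulVec]
      rwa [h2] at h5
    have h6 : hAdj hF N *ᵥ w = 0 := by
      rw [h1, Matrix.add_mulVec, Matrix.one_mulVec] at h4
      exact add_eq_right.1 h4
    rw [h6, hh0]
  obtain ⟨v₁, hv₁⟩ : ∃ v₁, φ v₁ ≠ 0 := by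
    by_contra hcon
    push Not at hcon
    exact hw0 (hermForm_nondeg_right hF (fun x => hcon x))
  set v₀ := (φ v₁)⁻¹ • v₁ with hv₀
  have hφv₀ : φ v₀ = 1 := by
    rw [hv₀, map_smul, smul_eq_mul, inv_mul_cancel₀ hv₁]
  -- the range is the kernel of the functional
  have hrange : LinearMap.range N.mulVecLin = LinearMap.ker φ := by
    apply Submodule.eq_of_le_of_finrank_eq
    · rintro _ ⟨z, rfl⟩
      exact hφN z
    · have h1 := LinearMap.finrank_range_add_finrank_ker φ
      have h2 : LinearMap.range φ = ⊤ := by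
        rw [LinearMap.range_eq_top]
        intro c
        exact ⟨c • v₀, by rw [map_smul, hφv₀, smul_eq_mul, mul_one]⟩
      rw [h2, finrank_top, Module.finrank_self, Module.finrank_fin_fun] at h1
      have h3 : Module.finrank K (LinearMap.range N.mulVecLin) = n - 1 := hr
      omega
  have hmemR : ∀ x, φ x = 0 → ∃ z, N *ᵥ z = x := by
    intro x hx
    have h1 : x ∈ LinearMap.range N.mulVecLin := by
      rw [hrange]
      exact hx
    obtain ⟨z, hz⟩ := h1
    exact ⟨z, hz⟩
  -- the scalar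
  set a := φ (e *ᵥ v₀) with ha
  set D := e - a • (1 : Matrix (Fin n) (Fin n) K) with hD
  have hDN : D * N = N * D := by
    have hc1 : Commute e N := hNe
    have hc2 : Commute (a • (1 : Matrix (Fin n) (Fin n) K)) N := (Commute.one_left N).smul_left a
    exact (hc1.sub_left hc2).eq
  have hφD : φ (D *ᵥ v₀) = 0 := by
    rw [hD, Matrix.sub_mulVec, Matrix.smul_mulVec, Matrix.one_mulVec, map_sub, map_smul, hφv₀, smul_eq_mul,
      mul_one, ← ha, sub_self]
  obtain ⟨z₁, hz₁⟩ := hmemR _ hφD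
  have hstep : ∀ x, ∃ y, D *ᵥ x = N *ᵥ y := by
    intro x
    have h1 : φ (x - φ x • v₀) = 0 := by
      rw [map_sub, map_smul, hφv₀, smul_eq_mul, mul_one, sub_self]
    obtain ⟨z, hz⟩ := hmemR _ h1
    refine ⟨φ x • z₁ + D *ᵥ z, ?_⟩
    have h2 : x = φ x • v₀ + N *ᵥ z := by rw [hz]; abel
    calc D *ᵥ x = D *ᵥ (φ x • v₀ + N *ᵥ z) := by rw [← h2]
      _ = φ x • (D *ᵥ v₀) + (D * N) *ᵥ z := by
          rw [Matrix.mulVec_add, Matrix.mulVec_smul, Matrix.mulVec_mulVec]
      _ = φ x • (N *ᵥ z₁) + (N * D) *ᵥ z := by rw [hz₁, hDN]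
      _ = N *ᵥ (φ x • z₁ + D *ᵥ z) := by
          rw [Matrix.mulVec_add, Matrix.mulVec_smul, Matrix.mulVec_mulVec]
  have hpow : ∀ (k : ℕ) x, ∃ y, (D ^ k) *ᵥ x = (N ^ k) *ᵥ y := by
    intro k
    induction k with
    | zero => exact fun x => ⟨x, by simp⟩
    | succ k ih =>
      intro x
      obtain ⟨y, hy⟩ := hstep x
      obtain ⟨y', hy'⟩ := ih y
      refine ⟨y', ?_⟩
      have hc' : Commute D N := hDN
      calc (D ^ (k + 1)) *ᵥ x = (D ^ k) *ᵥ (D *ᵥ x) := by rw [pow_succ, Matrix.mulVec_mulVec]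
        _ = (D ^ k * N) *ᵥ y := by rw [hy, Matrix.mulVec_mulVec]
        _ = (N * D ^ k) *ᵥ y := by rw [(hc'.pow_left k).eq]
        _ = N *ᵥ ((D ^ k) *ᵥ y) := by rw [Matrix.mulVec_mulVec]
        _ = N *ᵥ ((N ^ k) *ᵥ y') := by rw [hy']
        _ = (N ^ (k + 1)) *ᵥ y' := by rw [Matrix.mulVec_mulVec, pow_succ']
  have hDn : D ^ n = 0 := by
    apply Matrix.toLin'.injective
    apply LinearMap.ext
    intro x
    obtain ⟨y, hy⟩ := hpow n x
    rw [Matrix.toLin'_apply, hy, hN]
    simp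
  have he' : e = a • (1 : Matrix (Fin n) (Fin n) K) + D := by rw [hD]; abel
  have hdet : e.det = a ^ n := by
    rw [he']
    exact det_scalar_add_nil a D ⟨n, hDn⟩
  refine ⟨a, ?_, hdet⟩
  -- the eigenvalue on the kernel line
  have hew : e *ᵥ w = a • w := by
    have h1 : N *ᵥ (e *ᵥ w) = 0 := by
      rw [Matrix.mulVec_mulVec, ← hNe, ← Matrix.mulVec_mulVec, hNw, Matrix.mulVec_zero]
    obtain ⟨b, hb⟩ := hcK _ h1
    have h2 : D *ᵥ w = (b - a) • w := by
      rw [hD, Matrix.sub_mulVec, Matrix.smul_mulVec, Matrix.one_mulVec, hb, sub_smul]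
    have h3 : ∀ k : ℕ, (D ^ k) *ᵥ w = (b - a) ^ k • w := by
      intro k
      induction k with
      | zero => simp
      | succ k ih =>
        rw [pow_succ, ← Matrix.mulVec_mulVec, h2, Matrix.mulVec_smul, ih, smul_smul, pow_succ']
    have h4 := h3 n
    rw [hDn, Matrix.zero_mulVec] at h4
    have h5 : (b - a) ^ n = 0 := by
      rcases smul_eq_zero.1 h4.symm with h | h
      · exact h
      · exact absurd h hw0
    have h6 : b - a = 0 := pow_eq_zero_iff (by omega) |>.1 h5
    have h7 : b = a := sub_eq_zero.1 h6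
    rw [hb, h7]
  have hpres : Cfsg.hermForm n K q (e *ᵥ v₀) (e *ᵥ w) = Cfsg.hermForm n K q v₀ w := by
    rw [herm_adj hF, Matrix.mulVec_mulVec, he, Matrix.one_mulVec]
  have hev₀ : e *ᵥ v₀ = a • v₀ + D *ᵥ v₀ := by
    conv_lhs => rw [he']
    rw [Matrix.add_mulVec, Matrix.smul_mulVec, Matrix.one_mulVec]
  rw [hew, hev₀, hermForm_smul_right, hermForm_add_left hF, hermForm_smul_left] at hpres
  have e1 : Cfsg.hermForm n K q v₀ w = 1 := hφv₀
  have e2 : Cfsg.hermForm n K q (D *ᵥ v₀) w = 0 := hφD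
  rw [e1, e2] at hpres
  simpa using hpres

end Cfsg.Agent.Lib.UConj
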