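import Mathlib
import Cfsg.Agent.Lib.UConj.Reg1

/-!
Regular unipotent elements: Jordan types, existence in unitary groups.
-/

set_option autoImplicit false

namespace Cfsg.Agent.Lib.UConj

open Matrix Cfsg.Agent.Lib.Classical Cfsg.Agent.Lib.KS2.IsoCl Cfsg.Agent.Lib.KS2.Jordan

section types

variable {K : Type*} [Field K] [Fintype K] {n : ℕ}

lemma hasType_of_reg (hn : 1 ≤ n) (g : GL (Fin n) K) (hN : ((g : Matrix (Fin n) (Fin n) K) - 1) ^ n = 0)
    (hr : ((g : Matrix (Fin n) (Fin n) K) - 1).rank = n - 1) : HasType g {n} := by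
  classical
  obtain ⟨s, hs⟩ := exists_hasType_of_nil g ⟨n, hN⟩
  have hsum := sum_of_hasType hs
  obtain ⟨m, e, b, hb, hpos, rfl⟩ := hs
  have h1 := finrank_range_pow hb 1
  rw [pow_one] at h1
  have h2 : Module.finrank K (LinearMap.range (Matrix.toLin' ((g : Matrix (Fin n) (Fin n) K) - 1))) = ((g : Matrix (Fin n) (Fin n) K) - 1).rank := rfl
  rw [h2, hr] at h1
  have h3 : (Finset.univ.val.map e).sum = ∑ i, e i := rfl
  rw [h3] at hsum
  have h4 : ∑ i, (e i - 1) + m = ∑ i, e i := by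
    have h5 : ∑ i : Fin m, (e i - 1 + 1) = ∑ i, e i := by
      apply Finset.sum_congr rfl
      intro i _
      have := hpos i
      omega
    rw [← h5, Finset.sum_add_distrib]
    simp
  have hm : m = 1 := by omega
  subst hm
  refine ⟨1, e, b, hb, hpos, ?_⟩
  have h6 : e 0 = n := by simpa using hsum
  simp [h6]

lemma reg_of_hasType {g : GL (Fin n) K} (h : HasType g {n}) :
    ((g : Matrix (Fin n) (Fin n) K) - 1) ^ n = 0 ∧ ((g : Matrix (Fin n) (Fin n) K) - 1).rank = n - 1 := by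
  classical
  obtain ⟨m, e, b, hb, hpos, hs⟩ := h
  have h1 := congrArg Multiset.card hs
  simp only [Multiset.card_map, Finset.card_val, Finset.card_univ, Fintype.card_fin, Multiset.card_singleton] at h1
  subst h1
  have h2 : e 0 = n := by
    have h3 : (0 : Fin 1) ∈ Finset.univ := Finset.mem_univ _
    have h4 : e 0 ∈ Finset.univ.val.map e := Multiset.mem_map.2 ⟨0, h3, rfl⟩
    rw [hs] at h4
    simpa using h4
  have h5 : ∀ k, Module.finrank K (LinearMap.range ((Matrix.toLin' ((g : Matrix (Fin n) (Fin n) K) - 1)) ^ k)) = n - k := by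
    intro k
    rw [finrank_range_pow hb k]
    simp [h2]
  constructor
  · have h6 := h5 n
    rw [Nat.sub_self] at h6
    have h7 := Submodule.finrank_eq_zero.mp h6
    have h8 := LinearMap.range_eq_bot.1 h7
    have h9 : (Matrix.toLin' ((g : Matrix (Fin n) (Fin n) K) - 1)) ^ n = Matrix.toLin' (((g : Matrix (Fin n) (Fin n) K) - 1) ^ n) :=
      (map_pow (Matrix.toLinAlgEquiv' (R := K) (n := Fin n)) _ n).symm
    rw [h9] at h8
    exact Matrix.toLin'.injective (by rw [h8, map_zero])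
  · have h6 := h5 1
    rwa [pow_one] at h6

/-- Transport of regularity under similarity. -/
lemma reg_conj (x A B : Matrix (Fin n) (Fin n) K) (hx : x.det ≠ 0) (h : x * A = B * x) :
    ((A - 1) ^ n = 0 → (B - 1) ^ n = 0) ∧ (B - 1).rank = (A - 1).rank := by
  classical
  have hxu : IsUnit x.det := IsUnit.mk0 _ hx
  have hxi : x * x⁻¹ = 1 := Matrix.mul_nonsing_inv x hxu
  have hix : x⁻¹ * x = 1 := Matrix.nonsing_inv_mul x hxu
  have hs : x * (A - 1) = (B - 1) * x := by
    rw [mul_sub, sub_mul, h, mul_one, one_mul]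
  have hB : B - 1 = x * (A - 1) * x⁻¹ := by
    rw [hs, mul_assoc, hxi, mul_one]
  constructor
  · intro h0
    have h1 : SemiconjBy x (A - 1) (B - 1) := hs
    have h2 := (h1.pow_right n).eq
    rw [h0, mul_zero] at h2
    have h3 := congrArg (fun y => y * x⁻¹) h2
    simpa [mul_assoc, hxi] using h3.symm
  · rw [hB, Matrix.rank_mul_eq_left_of_isUnit_det, Matrix.rank_mul_eq_right_of_isUnit_det]
    · exact hxu
    · rw [Matrix.det_nonsing_inv]
      exact hxu.ringInverse

end types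

variable {K : Type*} [Field K] [Fintype K] {q n : ℕ}

/-- Existence of unitary regular unipotent matrices. -/
theorem exists_reg (hF : Fintype.card K = q ^ 2) (hn : 1 ≤ n) :
    ∃ B : Matrix (Fin n) (Fin n) K, hAdj hF B * B = 1 ∧ B.det = 1 ∧ (B - 1) ^ n = 0 ∧ (B - 1).rank = n - 1 := by
  classical
  obtain ⟨g, hnil, htype⟩ := exists_of_multiset (F := K) (n := n) {n} (by simp; omega) (by simp)
  obtain ⟨hg1, hg2⟩ := reg_of_hasType htype
  have hc := isConj_inv_adj hF g hnil
  obtain ⟨c, hc⟩ := hc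
  have hgdet : (g : Matrix (Fin n) (Fin n) K).det ≠ 0 := ((Matrix.isUnit_iff_isUnit_det _).mp g.isUnit).ne_zero
  have hcdet : (c : Matrix (Fin n) (Fin n) K).det ≠ 0 := ((Matrix.isUnit_iff_isUnit_det _).mp c.isUnit).ne_zero
  have hsdet : (hAdj hF (g : Matrix (Fin n) (Fin n) K)).det ≠ 0 := by
    rw [det_hAdj]
    intro h0
    apply hgdet
    have h1 := congrArg (conjQ hF) h0
    rwa [conjQ_conjQ, map_zero] at h1
  have hform : hAdj hF (g : Matrix (Fin n) (Fin n) K) * (c : Matrix (Fin n) (Fin n) K) * (g : Matrix (Fin n) (Fin n) K) = (c : Matrix (Fin n) (Fin n) K) := by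
    have h1 : (c : Matrix (Fin n) (Fin n) K) * (g : Matrix (Fin n) (Fin n) K) = (hAdj hF (g : Matrix (Fin n) (Fin n) K))⁻¹ * (c : Matrix (Fin n) (Fin n) K) := hc
    rw [mul_assoc, h1, ← mul_assoc, Matrix.mul_nonsing_inv _ (IsUnit.mk0 _ hsdet), one_mul]
  obtain ⟨x, B, hxdet, hBu, hxB⟩ := exists_unitary_of_form hF _ _ hgdet hcdet hform
  obtain ⟨h3, h4⟩ := reg_conj x _ B hxdet hxB
  have hdetg : (g : Matrix (Fin n) (Fin n) K).det = 1 := by
    have h5 := det_scalar_add_nil (1 : K) ((g : Matrix (Fin n) (Fin n) K) - 1) ⟨n, hg1⟩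
    rw [one_smul, add_sub_cancel, one_pow] at h5
    exact h5
  refine ⟨B, hBu, ?_, h3 hg1, by rw [h4, hg2]⟩
  have h6 := congrArg Matrix.det hxB
  rw [Matrix.det_mul, Matrix.det_mul, hdetg, mul_one, mul_comm] at h6
  exact mul_left_cancel₀ hxdet (by rw [mul_one]; exact h6.symm)

end Cfsg.Agent.Lib.UConj
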